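import Mathlib
import Cfsg.Agent.Lib.PGroup.KInfQuartic
import Cfsg.Agent.Lib.Transfer.WellPlaced

/-!
# Degrees of Engel action on chief factors below a critical subgroup

If `g` acts with degree `i` on the chief factors below `Q` and degree `j` on those below `Z(Q)`, it acts with degree
`i + j - 1` on all those below `P`, where `P` normalizes `Q`, `[P, Q] ≤ Z(Q)` and `C_P(Q) ≤ Q`.
-/

set_option autoImplicit false
set_option linter.style.haveILetI false
set_option linter.unusedVariables false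

namespace Cfsg.Agent.Lib.Transfer.CriticalDegree

open Subgroup Cfsg Cfsg.Agent.Lib.PGroup.ChiefAct Cfsg.Agent.Lib.PGroup.KInfQuartic
open scoped commutatorElement

variable {G : Type*} [Group G]

theorem it_le_self (U D : Subgroup G) [hU : U.Normal] (n : ℕ) : iterCommutator U D n ≤ U := by
  induction n with
  | zero => exact le_rfl
  | succ n ih => exact (Subgroup.commutator_mono ih le_rfl).trans (Subgroup.commutator_le_left U D)

/-- A subgroup normalized by `D` contains its commutator with `D`. -/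
theorem comm_le_of_norm {A D : Subgroup G} (h : D ≤ normalizer (A : Set G)) : ⁅A, D⁆ ≤ A := by
  rw [Subgroup.commutator_le]
  intro a ha d hd
  have e : ⁅a, d⁆ = a * (d * a⁻¹ * d⁻¹) := by
    rw [commutatorElement_def]
    group
  rw [e]
  exact A.mul_mem ha ((mem_normalizer_iff.1 (h hd) a⁻¹).1 (A.inv_mem ha))

/-- `D` normalizes the commutator with `D`. -/
theorem norm_comm {A D : Subgroup G} (h : D ≤ normalizer (A : Set G)) :
    D ≤ normalizer ((⁅A, D⁆ : Subgroup G) : Set G) := by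
  intro d hd
  rw [Subgroup.mem_normalizer_iff_map_conj_eq, Subgroup.map_commutator]
  have h1 : A.map (MulAut.conj d).toMonoidHom = A :=
    Subgroup.mem_normalizer_iff_map_conj_eq.1 (h hd)
  have h2 : D.map (MulAut.conj d).toMonoidHom = D := by
    ext x
    rw [Subgroup.mem_map_equiv, MulAut.conj_symm_apply]
    constructor
    · intro hx
      have := D.mul_mem (D.mul_mem hd hx) (D.inv_mem hd)
      simpa [mul_assoc] using this
    · intro hx
      exact D.mul_mem (D.mul_mem (D.inv_mem hd) hx) hd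
  exact congrArg₂ (fun a b : Subgroup G => ⁅a, b⁆) h1 h2

theorem norm_it (U D : Subgroup G) [hU : U.Normal] (n : ℕ) :
    D ≤ normalizer (iterCommutator U D n : Set G) := by
  induction n with
  | zero =>
    show D ≤ normalizer (U : Set G)
    rw [normalizer_eq_top]
    exact le_top
  | succ n ih => exact norm_comm ih

theorem it_succ_le (U D : Subgroup G) [hU : U.Normal] (n : ℕ) :
    iterCommutator U D (n + 1) ≤ iterCommutator U D n :=
  comm_le_of_norm (norm_it U D n)

theorem it_antitone (U D : Subgroup G) [hU : U.Normal] : Antitone (iterCommutator U D) :=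
  antitone_nat_of_succ_le (it_succ_le U D)

/-- The commutators modulo `W'`. -/
def Wm (W W' D : Subgroup G) (m : ℕ) : Subgroup G := iterCommutator W D m ⊔ W'

section pairing

variable [Finite G] {T X B B' W W' D : Subgroup G} [hWn : W.Normal] [hW'n : W'.Normal] [hXn : X.Normal]
  [hBn : B.Normal]

theorem Wm_antitone : Antitone (Wm W W' D) := fun _ _ h =>
  sup_le_sup_right (it_antitone W D h) _

theorem comm_Wm (m : ℕ) : ⁅Wm W W' D m, D⁆ ≤ Wm W W' D (m + 1) := by
  rw [Subgroup.commutator_le]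
  intro x hx d hd
  obtain ⟨a, ha, w, hw, rfl⟩ := Subgroup.mem_sup_of_normal_right.1 hx
  have e : ⁅a * w, d⁆ = (a * ⁅w, d⁆ * a⁻¹) * ⁅a, d⁆ := by
    simp only [commutatorElement_def]
    group
  rw [e]
  have h1 : ⁅w, d⁆ ∈ W' := by
    have e2 : ⁅w, d⁆ = w * (d * w⁻¹ * d⁻¹) := by
      rw [commutatorElement_def]
      group
    rw [e2]
    exact W'.mul_mem hw (hW'n.conj_mem _ (W'.inv_mem hw) d)
  refine Subgroup.mul_mem _ (Subgroup.mem_sup_right (hW'n.conj_mem _ h1 a)) ?_
  exact Subgroup.mem_sup_left (Subgroup.commutator_mem_commutator ha hd)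

theorem norm_Wm (m : ℕ) : D ≤ normalizer (Wm W W' D m : Set G) := by
  intro d hd
  refine Cfsg.Agent.Lib.Transfer.Frobenius.mem_normalizer_of_conj_mem fun n hn => ?_
  have h1 : ⁅n, d⁆ ∈ Wm W W' D (m + 1) := comm_Wm m (Subgroup.commutator_mem_commutator hn hd)
  have h2 : ⁅n, d⁆ ∈ Wm W W' D m := Wm_antitone (Nat.le_succ m) h1
  have e : d * n * d⁻¹ = ⁅n, d⁆⁻¹ * n := by
    rw [commutatorElement_inv, commutatorElement_def]
    group
  rw [e]
  exact Subgroup.mul_mem _ (Subgroup.inv_mem _ h2) hn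

/-- The main commutator computation. -/
theorem pairing_claim (hW'W : W' ≤ W) (hWT : ⁅W, T⁆ ≤ W') (hXT : X ≤ T) (hBT : B ≤ T)
    (hXB : ⁅X, B⁆ ≤ W) (hXB' : ⁅X, B'⁆ ≤ W') {i : ℕ} (hB : iterCommutator B D i ≤ B') :
    ∀ s t : ℕ, ⁅iterCommutator X D s, iterCommutator B D t⁆ ≤ Wm W W' D (s + t + 1 - i) := by
  have hTN : ∀ N' : Subgroup G, W' ≤ N' → N' ≤ W → T ≤ normalizer (N' : Set G) := by
    intro N' h1 h2 t ht
    refine Cfsg.Agent.Lib.Transfer.Frobenius.mem_normalizer_of_conj_mem fun n hn => ?_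
    have e : t * n * t⁻¹ = ⁅n, t⁆⁻¹ * n := by
      rw [commutatorElement_inv, commutatorElement_def]
      group
    rw [e]
    exact N'.mul_mem (h1 (W'.inv_mem (hWT (Subgroup.commutator_mem_commutator (h2 hn) ht)))) hn
  have hW'm : ∀ m, W' ≤ Wm W W' D m := fun m => le_sup_right
  have hWm : ∀ m, Wm W W' D m ≤ W := fun m => sup_le (it_le_self W D m) hW'W
  intro s
  induction s with
  | zero =>
    intro t
    by_cases ht : i ≤ t
    · have h1 : iterCommutator B D t ≤ B' := (it_antitone B D ht).trans hB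
      exact (Subgroup.commutator_mono le_rfl h1).trans (hXB'.trans (hW'm _))
    · have h0 : 0 + t + 1 - i = 0 := by omega
      rw [h0]
      have h1 : Wm W W' D 0 = W := by
        show W ⊔ W' = W
        exact sup_eq_left.2 hW'W
      rw [h1]
      exact (Subgroup.commutator_mono le_rfl (it_le_self B D t)).trans hXB
  | succ s ih =>
    intro t
    have hXs : iterCommutator X D s ≤ X := it_le_self X D s
    have hBt : iterCommutator B D t ≤ B := it_le_self B D t
    set N : Subgroup G := Wm W W' D (s + 1 + t + 1 - i) with hN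
    have h₁ : iterCommutator X D s ≤ normalizer (N : Set G) :=
      (hXs.trans hXT).trans (hTN N (hW'm _) (hWm _))
    have h₃ : iterCommutator B D t ≤ normalizer (N : Set G) :=
      (hBt.trans hBT).trans (hTN N (hW'm _) (hWm _))
    refine three_rel h₁ (norm_Wm _) h₃ ?_ ?_
    · rw [Subgroup.commutator_comm D, Subgroup.commutator_comm _ (iterCommutator X D s)]
      have := ih (t + 1)
      have e : s + (t + 1) + 1 - i = s + 1 + t + 1 - i := by omega
      rw [e] at this
      exact this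
    · rw [Subgroup.commutator_comm (iterCommutator B D t) (iterCommutator X D s)]
      refine (Subgroup.commutator_mono (ih t) le_rfl).trans ((comm_Wm _).trans ?_)
      exact Wm_antitone (by omega)

theorem pairing_step (hW'W : W' ≤ W) (hWT : ⁅W, T⁆ ≤ W') (hXT : X ≤ T) (hBT : B ≤ T)
    (hXB : ⁅X, B⁆ ≤ W) (hXB' : ⁅X, B'⁆ ≤ W') {i j : ℕ} (hi : 1 ≤ i)
    (hB : iterCommutator B D i ≤ B') (hW : iterCommutator W D j ≤ W') :
    ⁅iterCommutator X D (i + j - 1), B⁆ ≤ W' := by
  have h1 := pairing_claim hW'W hWT hXT hBT hXB hXB' hB (i + j - 1) 0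
  have e : i + j - 1 + 0 + 1 - i = j := by omega
  rw [e] at h1
  exact h1.trans (sup_le hW le_rfl)

end pairing

/-- If `U = X V` modulo a normal `V`, the iterated commutators of `U` are those of `X` modulo `V`. -/
theorem it_sup_le {U X V D : Subgroup G} [hVn : V.Normal] (h : X ⊔ V = U) {n : ℕ}
    (hX : iterCommutator X D n ≤ V) : iterCommutator U D n ≤ V := by
  let π := QuotientGroup.mk' V
  have hVb : V.map π = ⊥ := by
    rw [eq_bot_iff]
    rintro _ ⟨w, hw, rfl⟩
    exact (QuotientGroup.eq_one_iff w).mpr hw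
  have hmap : ∀ A : Subgroup G, ∀ m, (iterCommutator A D m).map π = iterCommutator (A.map π) (D.map π) m := by
    intro A m
    induction m with
    | zero => rfl
    | succ m ih =>
      show (⁅iterCommutator A D m, D⁆).map π = ⁅iterCommutator (A.map π) (D.map π) m, D.map π⁆
      rw [Subgroup.map_commutator, ih]
  have h1 : U.map π = X.map π := by
    rw [← h, Subgroup.map_sup, hVb, sup_bot_eq]
  have h2 : (iterCommutator U D n).map π ≤ ⊥ := by
    rw [hmap, h1, ← hmap, ← hVb]
    exact Subgroup.map_mono hX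
  intro x hx
  have h3 : π x ∈ (⊥ : Subgroup (G ⧸ V)) := h2 ⟨x, hx, rfl⟩
  exact (QuotientGroup.eq_one_iff x).mp h3

/-- A chief factor that is not covered by `M` comes from `M`. -/
theorem chief_inf {U V M : Subgroup G} [hMn : M.Normal] (hc : IsChiefFactor U V) (hUM : ¬ U ⊓ M ≤ V) :
    IsChiefFactor (U ⊓ M) (V ⊓ M) ∧ (U ⊓ M) ⊔ V = U := by
  obtain ⟨hVU, hUn, hVn, hmin⟩ := id hc
  haveI := hUn
  haveI := hVn
  have hN : ((U ⊓ M) ⊔ V : Subgroup G).Normal := by infer_instance
  rcases hmin _ hN le_sup_right (sup_le inf_le_left hVU.le) with h1 | h1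
  · exact absurd (le_sup_left.trans h1.le) hUM
  · refine ⟨⟨lt_of_le_of_ne (inf_le_inf_right M hVU.le) ?_, inferInstance, inferInstance, ?_⟩, h1⟩
    · intro he
      apply hUM
      rw [← he]
      exact inf_le_left
    · intro K hKn hK1 hK2
      haveI := hKn
      have hKV : (K ⊔ V : Subgroup G).Normal := by infer_instance
      rcases hmin _ hKV le_sup_right
        (sup_le (hK2.trans inf_le_left) hVU.le) with h2 | h2
      · left
        refine le_antisymm (le_inf ?_ (hK2.trans inf_le_right)) hK1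
        exact le_sup_left.trans h2.le
      · right
        refine le_antisymm hK2 ?_
        rintro x ⟨hxU, hxM⟩
        have hxU' : x ∈ K ⊔ V := by rw [h2]; exact hxU
        obtain ⟨k, hk, v, hv, rfl⟩ := Subgroup.mem_sup_of_normal_right.mp hxU'
        have hvM : v ∈ M := by
          have e : v = k⁻¹ * (k * v) := by group
          rw [e]
          exact M.mul_mem (M.inv_mem (hK2 hk).2) hxM
        exact K.mul_mem hk (hK1 ⟨hv, hvM⟩)

/-- Chief factors above a normal subgroup inside another. -/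
theorem exists_chief_above [Finite G] {B' Q : Subgroup G} [hB' : B'.Normal] [hQ : Q.Normal] (h : B' < Q) :
    ∃ B : Subgroup G, IsChiefFactor B B' ∧ B ≤ Q := by
  obtain ⟨B, ⟨hBn, hB'B, hBQ⟩, hmin⟩ := Set.exists_min_image {N : Subgroup G | N.Normal ∧ B' < N ∧ N ≤ Q}
    (fun N : Subgroup G => Nat.card N) (Set.toFinite _) ⟨Q, hQ, h, le_rfl⟩
  refine ⟨B, ⟨hB'B, hBn, hB', fun N hNn hB'N hNB => ?_⟩, hBQ⟩
  by_cases hh : N = B'
  · exact Or.inl hh
  · right
    have hcard := hmin N ⟨hNn, lt_of_le_of_ne hB'N (Ne.symm hh), hNB.trans hBQ⟩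
    exact Subgroup.eq_of_le_of_card_ge hNB hcard

/-- **The degree theorem.** -/
theorem degree_main [Finite G] {p : ℕ} [hp : Fact p.Prime] {P Q D : Subgroup G} [hPn : P.Normal]
    [hQn : Q.Normal] (hPp : IsPGroup p P) (hQP : Q ≤ P)
    (hQ3 : ⁅P, Q⁆ ≤ Q ⊓ centralizer (Q : Set G))
    (hQ4 : P ⊓ centralizer (Q : Set G) ≤ Q ⊓ centralizer (Q : Set G)) {i j : ℕ} (hi : 1 ≤ i)
    (hj : 1 ≤ j)
    (hQi : ∀ U V : Subgroup G, IsChiefFactor U V → U ≤ Q → iterCommutator U D i ≤ V)
    (hZj : ∀ U V : Subgroup G, IsChiefFactor U V → U ≤ Q ⊓ centralizer (Q : Set G) →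
      iterCommutator U D j ≤ V) :
    ∀ U V : Subgroup G, IsChiefFactor U V → U ≤ P → iterCommutator U D (i + j - 1) ≤ V := by
  intro U V hc hUP
  obtain ⟨hVU, hUn, hVn, hmin⟩ := id hc
  haveI := hUn
  haveI := hVn
  by_cases hUQ : U ⊓ Q ≤ V
  swap
  · obtain ⟨h1, h2⟩ := chief_inf hc hUQ
    have h3 := hQi _ _ h1 inf_le_right
    have h4 : iterCommutator U D i ≤ V := it_sup_le h2 (h3.trans inf_le_left)
    exact (it_antitone U D (by omega)).trans h4
  set Z : Subgroup G := Q ⊓ centralizer (Q : Set G) with hZ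
  haveI hZn : Z.Normal := by infer_instance
  have hZQ : Z ≤ Q := inf_le_left
  -- the first filtration
  let 𝓦 : Set (Subgroup G) := {W | ∃ hW : W.Normal, W ≤ Z ∧ (@sec _ _ U Q W hW) ⊔ V = U}
  have hZ𝓦 : Z ∈ 𝓦 := by
    refine ⟨hZn, le_rfl, ?_⟩
    refine le_antisymm (sup_le inf_le_left hVU.le) ?_
    refine le_trans ?_ le_sup_left
    intro x hx
    exact mem_sec.mpr ⟨hx, fun b hb => hQ3 (Subgroup.commutator_mem_commutator (hUP hx) hb)⟩
  obtain ⟨W, ⟨hWn, hWZ, hWs⟩, hWmin⟩ := Set.exists_min_image 𝓦 (fun W : Subgroup G => Nat.card W)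
    (Set.toFinite _) ⟨Z, hZ𝓦⟩
  haveI := hWn
  have hWne : W ≠ ⊥ := by
    rintro rfl
    apply hVU.not_ge
    rw [← hWs]
    refine sup_le ?_ le_rfl
    intro x hx
    obtain ⟨h1, h2⟩ := mem_sec.mp hx
    have hxC : x ∈ centralizer (Q : Set G) := by
      rw [mem_centralizer_iff]
      intro b hb
      have h3 := h2 b hb
      rw [Subgroup.mem_bot, commutatorElement_eq_one_iff_mul_comm] at h3
      exact h3.symm
    exact hUQ ⟨h1, (hQ4 ⟨hUP h1, hxC⟩).1⟩
  obtain ⟨W', hcW⟩ := exists_chief_below hWne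
  obtain ⟨hW'W, -, hW'n, -⟩ := id hcW
  haveI := hW'n
  have hsecW' : sec U Q W' ≤ V := by
    haveI hsn := sec_normal U Q W'
    have hN : (sec U Q W' ⊔ V : Subgroup G).Normal := by infer_instance
    rcases hmin _ hN le_sup_right (sup_le inf_le_left hVU.le) with h1 | h1
    · exact le_sup_left.trans h1.le
    · exfalso
      have h2 := hWmin W' ⟨hW'n, hW'W.le.trans hWZ, h1⟩
      have h3 : Nat.card W' < Nat.card W := Cfsg.Agent.Lib.Transfer.WellPlaced.card_lt_of_lt hW'W
      exact absurd h2 (not_le_of_gt h3)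
  set X₀ : Subgroup G := sec U Q W with hX₀
  haveI hX₀n : X₀.Normal := sec_normal U Q W
  have hX₀U : X₀ ≤ U := inf_le_left
  -- the second filtration
  let 𝓑 : Set (Subgroup G) := {B' | B'.Normal ∧ B' ≤ Q ∧ sec X₀ B' W' ⊔ V = U}
  have hbot𝓑 : (⊥ : Subgroup G) ∈ 𝓑 := by
    refine ⟨inferInstance, bot_le, ?_⟩
    rw [← hWs]
    congr 1
    refine le_antisymm inf_le_left fun x hx => mem_sec.mpr ⟨hx, fun b hb => ?_⟩
    rw [Subgroup.mem_bot] at hb
    rw [hb, commutatorElement_one_right]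
    exact W'.one_mem
  obtain ⟨B', ⟨hB'n, hB'Q, hB's⟩, hB'max⟩ := Set.exists_max_image 𝓑 (fun B : Subgroup G => Nat.card B)
    (Set.toFinite _) ⟨⊥, hbot𝓑⟩
  haveI := hB'n
  have hB'lt : B' < Q := by
    refine lt_of_le_of_ne hB'Q ?_
    rintro rfl
    apply hVU.not_ge
    rw [← hB's]
    refine sup_le ?_ le_rfl
    refine le_trans ?_ hsecW'
    intro x hx
    obtain ⟨h1, h2⟩ := mem_sec.mp hx
    exact mem_sec.mpr ⟨hX₀U h1, h2⟩
  obtain ⟨B, hcB, hBQ⟩ := exists_chief_above hB'lt
  obtain ⟨hB'B, hBn, -, -⟩ := id hcB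
  haveI := hBn
  have hsecB : sec X₀ B W' ≤ V := by
    haveI hsn := sec_normal X₀ B W'
    have hN : (sec X₀ B W' ⊔ V : Subgroup G).Normal := by infer_instance
    rcases hmin _ hN le_sup_right (sup_le (inf_le_left.trans hX₀U) hVU.le) with h1 | h1
    · exact le_sup_left.trans h1.le
    · exfalso
      have h2 := hB'max B ⟨hBn, hBQ, h1⟩
      have h3 : Nat.card B' < Nat.card B := Cfsg.Agent.Lib.Transfer.WellPlaced.card_lt_of_lt hB'B
      exact absurd h2 (not_le_of_gt h3)
  set X₁ : Subgroup G := sec X₀ B' W' with hX₁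
  haveI hX₁n : X₁.Normal := sec_normal X₀ B' W'
  have hX₁X₀ : X₁ ≤ X₀ := inf_le_left
  have hWT : ⁅W, P⁆ ≤ W' := by
    rw [Subgroup.commutator_le]
    exact chief_central hPp hcW (hWZ.trans (hZQ.trans hQP))
  have hXB : ⁅X₁, B⁆ ≤ W := by
    rw [Subgroup.commutator_le]
    intro x hx b hb
    exact (mem_sec.mp (hX₁X₀ hx)).2 b (hBQ hb)
  have hXB' : ⁅X₁, B'⁆ ≤ W' := by
    rw [Subgroup.commutator_le]
    intro x hx b hb
    exact (mem_sec.mp hx).2 b hb
  have h1 := pairing_step (T := P) (X := X₁) (B := B) (B' := B') (W := W) (W' := W') (D := D)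
    hW'W.le hWT ((hX₁X₀.trans hX₀U).trans hUP) (hBQ.trans hQP) hXB hXB' hi (hQi _ _ hcB hBQ)
    (hZj _ _ hcW hWZ)
  have h2 : iterCommutator X₁ D (i + j - 1) ≤ V := by
    refine le_trans ?_ hsecB
    intro y hy
    refine mem_sec.mpr ⟨hX₁X₀ (it_le_self X₁ D _ hy), fun b hb => ?_⟩
    exact h1 (Subgroup.commutator_mem_commutator hy hb)
  exact it_sup_le hB's h2

end Cfsg.Agent.Lib.Transfer.CriticalDegree
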