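import Mathlib
import Cfsg.Agent.Lib.Transfer.Basic
import Cfsg.Agent.Lib.Basic.SylowUtil
import Cfsg.Agent.Lib.Basic.ElementFusion

/-!
# Hall subgroups and the residuals `O^p(G)`

If `H` is a Hall subgroup and `O^p(G)` is a `p'`-group for every prime `p` dividing `|H|`, then the
intersection of these residuals is a normal complement of `H`.

Also: for `P` a Sylow `p`-subgroup and `T = P ∩ O^p(G)`, one has `T ≤ foc(T)`.
-/

set_option autoImplicit false

namespace Cfsg.Agent.Lib.Transfer.HallResidual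

open Subgroup

variable {G : Type*} [Group G] [Finite G]

/-- `H` Hall with all `O^p(G)` (`p` dividing `|H|`) being `p'`-groups: `H` has a normal
complement. -/
theorem exists_normal_complement_of_residuals (H : Subgroup G)
    (hHall : Nat.Coprime (Nat.card H) H.index)
    (hcompl : ∀ p : ℕ, p.Prime → p ∣ Nat.card H → (Nat.card (Cfsg.pResidual p G)).Coprime p) :
    ∃ N : Subgroup G, N.Normal ∧ N.IsComplement' H := by
  classical
  let N : Subgroup G := ⨅ p : (Nat.card H).primeFactors, Cfsg.pResidual (p : ℕ) G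
  have hmemN : ∀ g, g ∈ N ↔ ∀ p ∈ (Nat.card H).primeFactors, g ∈ Cfsg.pResidual p G := by
    intro g
    simp only [N, Subgroup.mem_iInf, Subtype.forall]
  have hNn : N.Normal := by
    constructor
    intro n hn g
    rw [hmemN] at hn ⊢
    intro p hp
    exact (Cfsg.Agent.Lib.Transfer.Basic.pResidual_normal p G).conj_mem n (hn p hp) g
  have hc1 : (Nat.card N).Coprime (Nat.card H) := by
    rw [Nat.coprime_iff_gcd_eq_one]
    by_contra hne
    obtain ⟨q, hq, hq'⟩ := Nat.exists_prime_and_dvd hne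
    have hqN := hq'.trans (Nat.gcd_dvd_left _ _)
    have hqH := hq'.trans (Nat.gcd_dvd_right _ _)
    have hmemq : q ∈ (Nat.card H).primeFactors := Nat.mem_primeFactors.mpr ⟨hq, hqH, Nat.card_pos.ne'⟩
    have hle : N ≤ Cfsg.pResidual q G := fun g hg => (hmemN g).mp hg q hmemq
    have hdvd : Nat.card N ∣ Nat.card (Cfsg.pResidual q G) := Subgroup.card_dvd_of_le hle
    have hcop := hcompl q hq hqH
    have := Nat.dvd_gcd (hqN.trans hdvd) (dvd_refl q)
    rw [hcop.gcd_eq_one] at this
    exact hq.one_lt.ne' (Nat.dvd_one.mp this)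
  have hc2 : (N.index).Coprime (H.index) := by
    rw [Nat.coprime_iff_gcd_eq_one]
    by_contra hne
    obtain ⟨q, hq, hq'⟩ := Nat.exists_prime_and_dvd hne
    have hqN := hq'.trans (Nat.gcd_dvd_left _ _)
    have hqH := hq'.trans (Nat.gcd_dvd_right _ _)
    have : Fact q.Prime := ⟨hq⟩
    have hqN' : q ∣ Nat.card (G ⧸ N) := by rwa [← Subgroup.index_eq_card]
    obtain ⟨gb, hgb⟩ := exists_prime_orderOf_dvd_card' q hqN'
    obtain ⟨g, rfl⟩ := QuotientGroup.mk_surjective gb
    have hgq : g ^ q ∈ N := by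
      rw [← QuotientGroup.eq_one_iff, QuotientGroup.mk_pow, ← hgb, pow_orderOf_eq_one]
    have hgN : g ∈ N := by
      rw [hmemN]
      intro p hp
      have hpp := Nat.prime_of_mem_primeFactors hp
      have hpd := Nat.dvd_of_mem_primeFactors hp
      have : Fact p.Prime := ⟨hpp⟩
      have hq_ne : q ≠ p := by
        rintro rfl
        have := Nat.dvd_gcd hpd hqH
        rw [hHall.gcd_eq_one] at this
        exact hq.one_lt.ne' (Nat.dvd_one.mp this)
      have hgq' : g ^ q ∈ Cfsg.pResidual p G := (hmemN _).mp hgq p hp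
      have hpg := Cfsg.Agent.Lib.Transfer.Basic.isPGroup_quotient_pResidual (G := G) (p := p)
      obtain ⟨k, hk⟩ := (IsPGroup.iff_orderOf.mp hpg) (g : G ⧸ Cfsg.pResidual p G)
      have h1 : (g : G ⧸ Cfsg.pResidual p G) ^ q = 1 := by
        rw [← QuotientGroup.mk_pow, QuotientGroup.eq_one_iff]
        exact hgq'
      have h2 : orderOf (g : G ⧸ Cfsg.pResidual p G) ∣ q := orderOf_dvd_of_pow_eq_one h1
      rw [hk] at h2
      have h3 : p ^ k = 1 := by
        rcases (Nat.dvd_prime hq).mp h2 with h4 | h4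
        · exact h4
        · exfalso
          have hk0 : k ≠ 0 := by
            rintro rfl
            simp at h4
            exact hq.one_lt.ne h4
          have h5 : p ∣ q := by
            rw [← h4]
            exact dvd_pow_self p hk0
          exact hq_ne ((Nat.prime_dvd_prime_iff_eq hpp hq).mp h5).symm
      rw [h3] at hk
      rw [orderOf_eq_one_iff, QuotientGroup.eq_one_iff] at hk
      exact hk
    have : orderOf (g : G ⧸ N) = 1 := by
      rw [orderOf_eq_one_iff, QuotientGroup.eq_one_iff]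
      exact hgN
    rw [this] at hgb
    exact hq.one_lt.ne hgb
  have hcard : Nat.card N * N.index = Nat.card H * H.index := by
    rw [Subgroup.card_mul_index, Subgroup.card_mul_index]
  have hidx : N.index = Nat.card H := by
    apply Nat.dvd_antisymm
    · apply Nat.Coprime.dvd_of_dvd_mul_right hc2
      rw [← hcard]
      exact dvd_mul_left _ _
    · apply Nat.Coprime.dvd_of_dvd_mul_left hc1.symm
      rw [hcard]
      exact dvd_mul_right _ _
  refine ⟨N, hNn, Subgroup.isComplement'_of_coprime ?_ hc1⟩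
  rw [← hidx, Subgroup.card_mul_index]

/-- The focal subgroup is monotone. -/
theorem focalSubgroup_mono {A B : Subgroup G} (h : A ≤ B) : focalSubgroup A ≤ focalSubgroup B := by
  rw [focalSubgroup_def, closure_le]
  rintro g ⟨hg, x, hx, u, rfl⟩
  exact subset_closure ⟨h hg, x, h hx, u, rfl⟩

variable {p : ℕ} [hp : Fact p.Prime]

/-- For `P` Sylow and `K = O^p(G)`: `P ∩ K ≤ foc(P ∩ K)`. -/
theorem inf_residual_le_focal (P : Sylow p G) :
    ((P : Subgroup G) ⊓ Cfsg.pResidual p G) ≤ focalSubgroup ((P : Subgroup G) ⊓ Cfsg.pResidual p G) := by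
  have hKn : (Cfsg.pResidual p G).Normal := inferInstance
  obtain ⟨Q, hQ⟩ := Cfsg.Agent.Lib.Basic.SylowUtil.exists_sylow_inf_normal P (Cfsg.pResidual p G)
  have hfoc := Cfsg.Agent.Lib.Basic.ElementFusion.focalSubgroupOf_eq_top_of_pResidual Q
    (Cfsg.Agent.Lib.Basic.ElementFusion.pResidual_pResidual_eq_top p)
  have h1 : (Q : Subgroup (Cfsg.pResidual p G)) ≤ focalSubgroup (Q : Subgroup (Cfsg.pResidual p G)) := by
    rw [← map_focalSubgroupOf, hfoc]
    intro y hy
    exact ⟨⟨y, hy⟩, mem_top _, rfl⟩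
  rw [← hQ]
  rw [map_le_iff_le_comap]
  refine h1.trans ?_
  rw [focalSubgroup_def, closure_le]
  rintro g ⟨hg, x, hx, u, rfl⟩
  refine subset_closure ⟨⟨_, hg, rfl⟩, (x : G), ⟨x, hx, rfl⟩, (u : G), rfl⟩

/-- If `P ∩ O^p(G) = 1` then `O^p(G)` is a `p'`-group. -/
theorem coprime_card_residual_of_inf_eq_bot (P : Sylow p G)
    (h : (P : Subgroup G) ⊓ Cfsg.pResidual p G = ⊥) :
    (Nat.card (Cfsg.pResidual p G)).Coprime p := by
  have hKn : (Cfsg.pResidual p G).Normal := inferInstance
  obtain ⟨Q, hQ⟩ := Cfsg.Agent.Lib.Basic.SylowUtil.exists_sylow_inf_normal P (Cfsg.pResidual p G)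
  rw [h] at hQ
  have hQb : (Q : Subgroup (Cfsg.pResidual p G)) = ⊥ :=
    (Subgroup.map_eq_bot_iff_of_injective _ (Subgroup.subtype_injective _)).mp hQ
  have hnd := Q.not_dvd_index
  rw [hQb, Subgroup.index_bot] at hnd
  exact ((Nat.Prime.coprime_iff_not_dvd hp.out).mpr hnd).symm

end Cfsg.Agent.Lib.Transfer.HallResidual
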