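import Mathlib
import Cfsg.Prelude.Def_PLocal
import Cfsg.Prelude.Def_TwoFusion
import Cfsg.Agent.Lib.Transfer.FusionCore

/-!
# The normal closure of `Ω₁Z(S)` in `N(W(S))` does not depend on the functor

Under factorizations `G* = C(Ω₁Z(T)) N(W(T))` in the constrained sections, the normal closure of
`Ω₁Z(S)` in `N(W₁(S))` and in `N(W₂(S))` agree.
-/

set_option autoImplicit false
set_option linter.unusedSectionVars false
set_option linter.style.haveILetI false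
set_option linter.unusedVariables false

universe u

namespace Cfsg.Agent.Lib.Transfer.OmegaClosure

open Subgroup Cfsg Cfsg.Agent.Lib.Transfer.WellPlaced Cfsg.Agent.Lib.Transfer.WellPlacedControl
open Cfsg.Agent.Lib.Transfer.FamilyControl Cfsg.Agent.Lib.Transfer.SectionBasic
open Cfsg.Agent.Lib.Transfer.TransferReduction Cfsg.Agent.Lib.Transfer.FusionBasic
open Cfsg.Agent.Lib.Transfer.FusionCore
open Cfsg.Agent.Lib.Basic.PCore Cfsg.Agent.Lib.Basic.SylowUtil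

/-- `Ω₁ Z(S)`. -/
abbrev ZZ (p : ℕ) {Y : Type*} [Group Y] (S : Subgroup Y) : Subgroup Y :=
  omegaOne p (S ⊓ centralizer (S : Set Y))

variable {p : ℕ}

theorem ZZ_le {Y : Type*} [Group Y] (S : Subgroup Y) : ZZ p S ≤ S ⊓ centralizer (S : Set Y) :=
  (closure_le _).2 fun _ hx => hx.1

theorem ZZ_map_of_injOn {X Y : Type*} [Group X] [Group Y] (f : X →* Y) {P : Subgroup X}
    (hinj : ∀ a ∈ P, ∀ b ∈ P, f a = f b → a = b) :
    ZZ p (P.map f) = (ZZ p P).map f := by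
  rw [ZZ, omegaOne, ZZ, omegaOne, MonoidHom.map_closure]
  congr 1
  ext y
  constructor
  · rintro ⟨⟨⟨x, hx, rfl⟩, hc⟩, hp⟩
    refine ⟨x, ⟨⟨hx, mem_centralizer_iff.2 ?_⟩, hinj (x ^ p) (pow_mem hx p) 1 (one_mem _) (by simpa using hp)⟩, rfl⟩
    intro s hs
    have := (mem_centralizer_iff.1 hc) (f s) ⟨s, hs, rfl⟩
    exact hinj _ (mul_mem hs hx) _ (mul_mem hx hs) (by simpa using this)
  · rintro ⟨x, ⟨⟨hx, hc⟩, hp⟩, rfl⟩
    refine ⟨⟨⟨x, hx, rfl⟩, mem_centralizer_iff.2 ?_⟩, by rw [← map_pow, hp, map_one]⟩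
    rintro _ ⟨s, hs, rfl⟩
    have := mem_centralizer_iff.1 hc s hs
    rw [← map_mul, ← map_mul, this]

section BB

variable {X Y : Type u} [Group X] [Group Y]

/-- The subgroup generated by the `n z n⁻¹`, for `n ∈ H ∩ N(W S)`, `z ∈ Ω₁Z(S)`. -/
def BBH (p : ℕ) (H : Subgroup Y) (W : WT.{u}) (S : Subgroup Y) : Subgroup Y :=
  closure {x | ∃ n ∈ H ⊓ Nz (inducedFunctor W S), ∃ z ∈ ZZ p S, x = n * z * n⁻¹}

theorem mem_BBH {H : Subgroup Y} {W : WT.{u}} {S : Subgroup Y} {n z : Y} (hn : n ∈ H)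
    (hn' : n ∈ Nz (inducedFunctor W S)) (hz : z ∈ ZZ p S) : n * z * n⁻¹ ∈ BBH p H W S :=
  subset_closure ⟨n, ⟨hn, hn'⟩, z, hz, rfl⟩

theorem BBH_mono {H H' : Subgroup Y} (h : H ≤ H') (W : WT.{u}) (S : Subgroup Y) :
    BBH p H W S ≤ BBH p H' W S := by
  refine closure_mono ?_
  rintro x ⟨n, hn, z, hz, rfl⟩
  exact ⟨n, ⟨h hn.1, hn.2⟩, z, hz, rfl⟩

theorem BBH_swap (W₁ W₂ : WT.{u}) (S : Subgroup Y) :
    BBH p (Nz (inducedFunctor W₁ S)) W₂ S = BBH p (Nz (inducedFunctor W₂ S)) W₁ S := by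
  rw [BBH, BBH, inf_comm]

theorem BBH_self (W : WT.{u}) (S : Subgroup Y) :
    BBH p (Nz (inducedFunctor W S)) W S = BBH p ⊤ W S := by
  rw [BBH, BBH, inf_idem, top_inf_eq]

/-- Conjugation by an element of `H ∩ N(W S)` preserves the closure. -/
theorem conj_mem_BBH {H : Subgroup Y} {W : WT.{u}} {S : Subgroup Y} {n x : Y} (hn : n ∈ H)
    (hn' : n ∈ Nz (inducedFunctor W S)) (hx : x ∈ BBH p H W S) : n * x * n⁻¹ ∈ BBH p H W S := by
  have h : BBH p H W S ≤ (BBH p H W S).comap (MulAut.conj n).toMonoidHom := by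
    refine (closure_le _).2 ?_
    rintro _ ⟨m, hm, z, hz, rfl⟩
    have e : (MulAut.conj n).toMonoidHom (m * z * m⁻¹) = (n * m) * z * (n * m)⁻¹ := by
      simp [MulAut.conj_apply]
      group
    show (MulAut.conj n).toMonoidHom (m * z * m⁻¹) ∈ BBH p H W S
    rw [e]
    exact mem_BBH (H.mul_mem hn hm.1) (mul_mem hn' hm.2) hz
  have := h hx
  simpa [MulAut.conj_apply] using this

theorem mem_Nz_BBH {W : WT.{u}} {S : Subgroup Y} {n : Y} (hn' : n ∈ Nz (inducedFunctor W S)) :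
    n ∈ Nz (BBH p ⊤ W S) := by
  refine Subgroup.mem_normalizer_iff.2 fun x => ⟨fun hx => ?_, fun hx => ?_⟩
  · exact conj_mem_BBH (mem_top _) hn' hx
  · have := conj_mem_BBH (H := ⊤) (mem_top _) (inv_mem hn') hx
    simpa [mul_assoc] using this

/-- The general transport. -/
theorem BBH_map [Finite X] {W : WT.{u}} (hW : IsCharPFunctor.{u} p W) [hp : Fact p.Prime] (f : X →* Y)
    {S : Subgroup X} (hS : IsPGroup p S) (hinj : ∀ a ∈ S, ∀ b ∈ S, f a = f b → a = b)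
    {H : Subgroup X} {H' : Subgroup Y}
    (h1 : ∀ y ∈ H' ⊓ Nz ((inducedFunctor W S).map f), ∃ n ∈ H ⊓ Nz (inducedFunctor W S), f n = y)
    (h2 : ∀ n ∈ H ⊓ Nz (inducedFunctor W S), f n ∈ H' ⊓ Nz ((inducedFunctor W S).map f)) :
    BBH p H' W (S.map f) = (BBH p H W S).map f := by
  rw [BBH, BBH, MonoidHom.map_closure, iW_map_of_injOn hW f hS hinj, ZZ_map_of_injOn f hinj]
  congr 1
  ext y
  constructor
  · rintro ⟨m, hm, _, ⟨z, hz, rfl⟩, rfl⟩
    obtain ⟨n, hn, rfl⟩ := h1 m hm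
    exact ⟨n * z * n⁻¹, ⟨n, hn, z, hz, rfl⟩, by simp⟩
  · rintro ⟨_, ⟨n, hn, z, hz, rfl⟩, rfl⟩
    exact ⟨f n, h2 n hn, f z, ⟨z, hz, rfl⟩, by simp⟩

/-- Transport to a subgroup. -/
theorem BBH_map_subtype [Finite Y] {W : WT.{u}} (hW : IsCharPFunctor.{u} p W) [hp : Fact p.Prime] (L : Subgroup Y)
    {S : Subgroup L} (hS : IsPGroup p S) :
    BBH p L W (S.map L.subtype) = (BBH p ⊤ W S).map L.subtype := by
  have hinj := L.subtype_injective
  refine BBH_map hW L.subtype hS (fun a _ b _ h => hinj h) ?_ ?_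
  · rintro y ⟨hy, hy'⟩
    refine ⟨⟨y, hy⟩, ⟨mem_top _, ?_⟩, rfl⟩
    refine Subgroup.mem_normalizer_iff.2 fun h => ?_
    have := Subgroup.mem_normalizer_iff.1 hy' (h : Y)
    have a : ∀ k : L, (k : Y) ∈ (inducedFunctor W S).map L.subtype ↔ k ∈ inducedFunctor W S :=
      fun k => Subgroup.mem_map_iff_mem hinj
    rw [← a h, ← a (⟨y, hy⟩ * h * (⟨y, hy⟩ : L)⁻¹)]
    exact this
  · rintro n ⟨-, hn⟩
    exact ⟨n.2, Subgroup.le_normalizer_map L.subtype ⟨n, hn, rfl⟩⟩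

/-- Transport to the quotient by a normal `p'`-subgroup. -/
theorem BBH_map_quot [Finite Y] {W : WT.{u}} (hW : IsCharPFunctor.{u} p W) [hp : Fact p.Prime] (D : Subgroup Y) [hDn : D.Normal]
    (hD : (Nat.card D).Coprime p) {S : Subgroup Y} (hS : IsPGroup p S) :
    BBH p ⊤ W (S.map (QuotientGroup.mk' D)) = (BBH p ⊤ W S).map (QuotientGroup.mk' D) := by
  refine BBH_map hW (QuotientGroup.mk' D) hS ?_ ?_ ?_
  · intro a ha b hb hab
    have h1 : a⁻¹ * b ∈ D := QuotientGroup.eq.1 hab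
    have := eq_one_of_coprime hD hS h1 (S.mul_mem (S.inv_mem ha) hb)
    rw [inv_mul_eq_one] at this
    exact this
  · rintro y ⟨-, hy⟩
    obtain ⟨y₀, rfl⟩ := QuotientGroup.mk'_surjective D y
    have hWp : IsPGroup p (inducedFunctor W S) := by
      exact hS.to_le ((isConjugacyFunctor_iW hW S hS).1)
    obtain ⟨d, hd, n, hn, rfl⟩ := exists_mul_of_map_normalizer hWp hD hy
    refine ⟨n, ⟨mem_top _, hn⟩, ?_⟩
    have : QuotientGroup.mk' D d = 1 := (QuotientGroup.eq_one_iff d).2 hd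
    rw [map_mul, this, one_mul]
  · rintro n ⟨-, hn⟩
    exact ⟨mem_top _, Subgroup.le_normalizer_map _ ⟨n, hn, rfl⟩⟩

/-- `W`-factorization in the constrained case. -/
def FacW (p : ℕ) (W : WT.{u}) (Y : Type u) [Group Y] : Prop :=
  Constrained p Y → ∀ T : Sylow p Y, ∀ x : Y, ∃ a ∈ centralizer ((ZZ p (T : Subgroup Y) : Subgroup Y) : Set Y),
    ∃ b ∈ Nz (inducedFunctor W (T : Subgroup Y)), x = a * b

theorem FacW.of_equiv [Finite X] [Finite Y] {W : WT.{u}} (hW : IsCharPFunctor.{u} p W) [hp : Fact p.Prime]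
    (e : X ≃* Y) (h : FacW p W Y) : FacW p W X := by
  intro hc T x
  let T' : Sylow p Y := T.mapSurjective (f := e.toMonoidHom) e.surjective
  have hT' : (T' : Subgroup Y) = (T : Subgroup X).map e.toMonoidHom := rfl
  have hinj : ∀ a ∈ (T : Subgroup X), ∀ b ∈ (T : Subgroup X), e.toMonoidHom a = e.toMonoidHom b → a = b :=
    fun a _ b _ h => e.injective h
  obtain ⟨a', ha', b', hb', hx⟩ := h (Constrained.of_equiv e hc) T' (e x)
  rw [hT', ZZ_map_of_injOn _ hinj] at ha'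
  rw [hT', iW_map_of_injOn hW _ T.isPGroup' hinj] at hb'
  refine ⟨e.symm a', ?_, e.symm b', ?_, ?_⟩
  · refine mem_centralizer_iff.2 fun z hz => ?_
    have := (mem_centralizer_iff.1 ha') (e z) ⟨z, hz, rfl⟩
    apply e.injective
    simpa using this
  · refine Subgroup.mem_normalizer_iff.2 fun k => ?_
    have a : ∀ k : X, e k ∈ (inducedFunctor W (T : Subgroup X)).map e.toMonoidHom ↔ k ∈ inducedFunctor W (T : Subgroup X) :=
      fun k => Subgroup.mem_map_iff_mem e.injective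
    rw [← a k, ← a (e.symm b' * k * (e.symm b')⁻¹)]
    have := Subgroup.mem_normalizer_iff.1 hb' (e k)
    simpa using this
  · apply e.injective
    simpa using hx

end BB

section main

variable [hp : Fact p.Prime] {Y : Type u} [Group Y] [Finite Y]

/-- The case where `W'(S)` is normal. -/
theorem one_side {W W' : WT.{u}} (hW : IsCharPFunctor.{u} p W) (hW' : IsCharPFunctor.{u} p W')
    (S : Sylow p Y) (hZ : ZZ p (S : Subgroup Y) ≤ inducedFunctor W (S : Subgroup Y) ⊓ inducedFunctor W' (S : Subgroup Y))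
    (hN' : Nz (inducedFunctor W' (S : Subgroup Y)) = ⊤) (hfac : FacW p W Y)
    (hsub : ∀ L : Subgroup Y, L ≠ ⊤ → (S : Subgroup Y) ≤ L →
      BBH p L W (S : Subgroup Y) = BBH p L W' (S : Subgroup Y))
    (hquot : ∀ (D : Subgroup Y) [D.Normal], (Nat.card D).Coprime p → D ≠ ⊥ →
      (BBH p ⊤ W (S : Subgroup Y)).map (QuotientGroup.mk' D) = (BBH p ⊤ W' (S : Subgroup Y)).map (QuotientGroup.mk' D)) :
    BBH p ⊤ W (S : Subgroup Y) = BBH p ⊤ W' (S : Subgroup Y) := by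
  set U := inducedFunctor W' (S : Subgroup Y) with hU
  have hUS : U ≤ (S : Subgroup Y) := (isConjugacyFunctor_iW hW' _ S.isPGroup').1
  haveI hUn : U.Normal := Subgroup.normalizer_eq_top_iff.1 hN'
  have hle : BBH p ⊤ W (S : Subgroup Y) ≤ BBH p ⊤ W' (S : Subgroup Y) := by
    refine closure_mono ?_
    rintro x ⟨n, hn, z, hz, rfl⟩
    exact ⟨n, ⟨mem_top _, by rw [hN']; exact mem_top _⟩, z, hz, rfl⟩
  have hB' : BBH p ⊤ W' (S : Subgroup Y) ≤ U := by
    refine (closure_le _).2 ?_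
    rintro _ ⟨n, hn, z, hz, rfl⟩
    exact hUn.conj_mem z (hZ hz).2 n
  have hBS : BBH p ⊤ W' (S : Subgroup Y) ≤ (S : Subgroup Y) := hB'.trans hUS
  refine le_antisymm hle ?_
  have hUQ : U ≤ pCore p Y := le_pCore hUn (S.isPGroup'.to_le hUS)
  by_cases hnp : ∃ D : Subgroup Y, D.Normal ∧ (Nat.card D).Coprime p ∧ D ≠ ⊥
  · obtain ⟨D, hDn, hDc, hD⟩ := hnp
    intro x hx
    have h1 : (QuotientGroup.mk' D) x ∈ (BBH p ⊤ W (S : Subgroup Y)).map (QuotientGroup.mk' D) := by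
      rw [hquot D hDc hD]
      exact ⟨x, hx, rfl⟩
    obtain ⟨y, hy, hyx⟩ := h1
    have h2 : y⁻¹ * x ∈ D := QuotientGroup.eq.1 hyx
    have h3 := eq_one_of_coprime hDc S.isPGroup' h2
      (mul_mem (inv_mem (hBS (hle hy))) (hBS hx))
    rw [inv_mul_eq_one] at h3
    rwa [← h3]
  by_cases hc : Constrained p Y
  · refine (closure_le _).2 ?_
    rintro _ ⟨g, -, z, hz, rfl⟩
    obtain ⟨a, ha, b, hb, hab⟩ := hfac hc S g⁻¹
    have e : g = b⁻¹ * a⁻¹ := by
      have : g = (g⁻¹)⁻¹ := by group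
      rw [this, hab]
      group
    have h1 : a⁻¹ * z * a = z := by
      have := (mem_centralizer_iff.1 ha) z hz
      rw [mul_assoc, this]
      group
    have h2 : g * z * g⁻¹ = b⁻¹ * z * (b⁻¹)⁻¹ := by
      rw [e]
      calc b⁻¹ * a⁻¹ * z * (b⁻¹ * a⁻¹)⁻¹ = b⁻¹ * (a⁻¹ * z * a) * b := by group
        _ = b⁻¹ * z * (b⁻¹)⁻¹ := by rw [h1]; group
    rw [h2]
    exact mem_BBH (mem_top _) (inv_mem hb) hz
  have hnp' : ∀ D : Subgroup Y, D.Normal → (Nat.card D).Coprime p → D = ⊥ := by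
    intro D h1 h2
    by_contra h3
    exact hnp ⟨D, h1, h2, h3⟩
  obtain ⟨-, L, hLne, hSL, hfacL⟩ := exists_L_of_not_constrained S hnp' hc
  refine (closure_le _).2 ?_
  rintro _ ⟨g, -, z, hz, rfl⟩
  obtain ⟨c, hc', l, hl, rfl⟩ := hfacL g
  have h0 : l * z * l⁻¹ ∈ pCore p Y := (pCore_normal p Y).conj_mem z (hUQ (hZ hz).2) l
  have h1 : (c * l) * z * (c * l)⁻¹ = l * z * l⁻¹ := by
    have := (mem_centralizer_iff.1 hc') _ h0
    calc (c * l) * z * (c * l)⁻¹ = c * (l * z * l⁻¹) * c⁻¹ := by group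
      _ = (l * z * l⁻¹) * c * c⁻¹ := by rw [this]
      _ = l * z * l⁻¹ := by group
  rw [h1]
  refine (BBH_mono (le_top : L ≤ ⊤) W _) ?_
  rw [hsub L hLne hSL]
  exact mem_BBH hl (by rw [hN']; exact mem_top _) hz

/-- The main induction. -/
theorem main {W₁ W₂ : WT.{u}} (hW₁ : IsCharPFunctor.{u} p W₁) (hW₂ : IsCharPFunctor.{u} p W₂)
    (𝒮 : ∀ (X : Type u) [Group X], Prop)
    (hsub : ∀ (X : Type u) [Group X] (H : Subgroup X), 𝒮 X → 𝒮 H)
    (hquo : ∀ (X : Type u) [Group X] (N : Subgroup X) [N.Normal], 𝒮 X → 𝒮 (X ⧸ N))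
    (hF₁ : ∀ (X : Type u) [Group X] [Finite X], 𝒮 X → FacW p W₁ X)
    (hF₂ : ∀ (X : Type u) [Group X] [Finite X], 𝒮 X → FacW p W₂ X) :
    ∀ (n : ℕ) (Y : Type u) [Group Y] [Finite Y], Nat.card Y = n → 𝒮 Y →
      ∀ S : Sylow p Y, ZZ p (S : Subgroup Y) ≤ inducedFunctor W₁ (S : Subgroup Y) ⊓ inducedFunctor W₂ (S : Subgroup Y) →
        BBH p ⊤ W₁ (S : Subgroup Y) = BBH p ⊤ W₂ (S : Subgroup Y) := by
  intro n
  induction n using Nat.strong_induction_on with
  | _ n ih =>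
    intro Y _ _ hn hY S hZ
    have hL : ∀ L : Subgroup Y, L ≠ ⊤ → (S : Subgroup Y) ≤ L →
        BBH p L W₁ (S : Subgroup Y) = BBH p L W₂ (S : Subgroup Y) := by
      intro L hLne hSL
      let S' : Sylow p L := S.subtype hSL
      have hS' : (S' : Subgroup L).map L.subtype = S := by
        show ((S : Subgroup Y).subgroupOf L).map L.subtype = S
        exact Subgroup.map_subgroupOf_eq_of_le hSL
      have hcard : Nat.card L < n := by
        have := card_lt_of_lt (lt_top_iff_ne_top.2 hLne)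
        rwa [Subgroup.card_top, hn] at this
      have hinj : ∀ a ∈ (S' : Subgroup L), ∀ b ∈ (S' : Subgroup L), L.subtype a = L.subtype b → a = b :=
        fun a _ b _ h => L.subtype_injective h
      have hZ' : ZZ p (S' : Subgroup L) ≤ inducedFunctor W₁ (S' : Subgroup L) ⊓ inducedFunctor W₂ (S' : Subgroup L) := by
        intro x hx
        have h1 : (x : Y) ∈ ZZ p ((S' : Subgroup L).map L.subtype) := by
          rw [ZZ_map_of_injOn _ hinj]
          exact ⟨x, hx, rfl⟩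
        rw [hS'] at h1
        have h2 := hZ h1
        rw [← hS', iW_map_of_injOn hW₁ _ S'.isPGroup' hinj, iW_map_of_injOn hW₂ _ S'.isPGroup' hinj] at h2
        exact ⟨(Subgroup.mem_map_iff_mem L.subtype_injective).1 h2.1, (Subgroup.mem_map_iff_mem L.subtype_injective).1 h2.2⟩
      have h := ih _ hcard L rfl (hsub Y L hY) S' hZ'
      rw [← hS', BBH_map_subtype hW₁ L S'.isPGroup', BBH_map_subtype hW₂ L S'.isPGroup', h]
    have hQ : ∀ (D : Subgroup Y) [D.Normal], (Nat.card D).Coprime p → D ≠ ⊥ →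
      (BBH p ⊤ W₁ (S : Subgroup Y)).map (QuotientGroup.mk' D) = (BBH p ⊤ W₂ (S : Subgroup Y)).map (QuotientGroup.mk' D) := by
      intro D _ hDc hD
      let S' : Sylow p (Y ⧸ D) := S.mapSurjective (QuotientGroup.mk'_surjective D)
      have hS' : (S' : Subgroup (Y ⧸ D)) = (S : Subgroup Y).map (QuotientGroup.mk' D) := rfl
      have hcard : Nat.card (Y ⧸ D) < n := by
        have h1 := Subgroup.card_eq_card_quotient_mul_card_subgroup D
        have h2 : 1 < Nat.card D := by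
          rw [Finite.one_lt_card_iff_nontrivial, Subgroup.nontrivial_iff_ne_bot]
          exact hD
        have h3 : 0 < Nat.card (Y ⧸ D) := Nat.card_pos
        rw [← hn, h1]
        nlinarith
      have hinj : ∀ a ∈ (S : Subgroup Y), ∀ b ∈ (S : Subgroup Y), QuotientGroup.mk' D a = QuotientGroup.mk' D b → a = b := by
        intro a ha b hb hab
        have h1 : a⁻¹ * b ∈ D := QuotientGroup.eq.1 hab
        have := eq_one_of_coprime hDc S.isPGroup' h1 (mul_mem (inv_mem ha) hb)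
        rw [inv_mul_eq_one] at this
        exact this
      have hZ' : ZZ p (S' : Subgroup (Y ⧸ D)) ≤ inducedFunctor W₁ (S' : Subgroup (Y ⧸ D)) ⊓ inducedFunctor W₂ (S' : Subgroup (Y ⧸ D)) := by
        rw [hS', ZZ_map_of_injOn _ hinj, iW_map_of_injOn hW₁ _ S.isPGroup' hinj, iW_map_of_injOn hW₂ _ S.isPGroup' hinj]
        exact le_inf (Subgroup.map_mono (hZ.trans inf_le_left)) (Subgroup.map_mono (hZ.trans inf_le_right))
      have h := ih _ hcard (Y ⧸ D) rfl (hquo Y D hY) S' hZ'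
      rw [hS', BBH_map_quot hW₁ D hDc S.isPGroup', BBH_map_quot hW₂ D hDc S.isPGroup'] at h
      exact h
    by_cases h₁ : Nz (inducedFunctor W₁ (S : Subgroup Y)) = ⊤
    · by_cases h₂ : Nz (inducedFunctor W₂ (S : Subgroup Y)) = ⊤
      · rw [BBH, BBH, h₁, h₂]
      · exact (one_side hW₂ hW₁ S (by rwa [inf_comm]) h₁ (hF₂ Y hY)
          (fun L h1 h2 => (hL L h1 h2).symm) (fun D _ h1 h2 => (hQ D h1 h2).symm)).symm
    · by_cases h₂ : Nz (inducedFunctor W₂ (S : Subgroup Y)) = ⊤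
      · exact one_side hW₁ hW₂ S hZ h₂ (hF₁ Y hY) hL hQ
      · have hSN₁ : (S : Subgroup Y) ≤ Nz (inducedFunctor W₁ (S : Subgroup Y)) :=
          (le_Nz_self _).trans (Nz_le_Nz_W (isConjugacyFunctor_iW hW₁) S.isPGroup')
        have hSN₂ : (S : Subgroup Y) ≤ Nz (inducedFunctor W₂ (S : Subgroup Y)) :=
          (le_Nz_self _).trans (Nz_le_Nz_W (isConjugacyFunctor_iW hW₂) S.isPGroup')
        rw [← BBH_self W₁, hL _ h₁ hSN₁, BBH_swap, hL _ h₂ hSN₂, BBH_self]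

end main

end Cfsg.Agent.Lib.Transfer.OmegaClosure
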