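import Mathlib
import Cfsg.Agent.Lib.Fusion.CharTransfer

/-!
# The principal ideal theorem of group theory

For a finite group `G` the transfer `G → G'/G''` is trivial (Furtwängler, Iyanaga, Witt).
We use Witt's argument with the integral group ring of the abelian group `G/G'`.
-/

set_option autoImplicit false

namespace Cfsg.Agent.Lib.Transfer.PrincipalIdeal

open MonoidAlgebra
open scoped commutatorElement

section Linear

/-- Cramer's rule with coefficients in a module. -/
theorem cramer {R W J : Type*} [CommRing R] [AddCommGroup W] [Module R W] [Fintype J] [DecidableEq J]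
    (B : Matrix J J R) (δ : J → W) (h : ∀ j, ∑ b, B j b • δ b = 0) (k : J) : B.det • δ k = 0 := by
  have e : ∑ j, B.adjugate k j • ∑ b, B j b • δ b = B.det • δ k := by
    simp_rw [Finset.smul_sum, smul_smul]
    rw [Finset.sum_comm]
    have h1 : ∀ b, ∑ j, (B.adjugate k j * B j b) • δ b = (B.adjugate * B) k b • δ b := by
      intro b
      rw [Matrix.mul_apply, Finset.sum_smul]
    simp_rw [h1, Matrix.adjugate_mul]
    rw [Finset.sum_eq_single k]
    · simp
    · intro b _ hb
      simp [Matrix.one_apply, Ne.symm hb]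
    · simp
  rw [← e]
  simp [h]

end Linear

section GroupRing

variable {Q : Type*} [CommGroup Q]

/-- The augmentation. -/
noncomputable def aug : MonoidAlgebra ℤ Q →ₐ[ℤ] ℤ := MonoidAlgebra.lift ℤ ℤ Q 1

@[simp] theorem aug_of (p : Q) : aug (MonoidAlgebra.of ℤ Q p) = 1 := by
  unfold aug
  rw [MonoidAlgebra.lift_of]
  rfl

/-- The sum of all group elements. -/
noncomputable def TT (Q : Type*) [CommGroup Q] [Fintype Q] : MonoidAlgebra ℤ Q :=
  ∑ p, MonoidAlgebra.of ℤ Q p

variable [Fintype Q]

theorem of_mul_TT (p : Q) : MonoidAlgebra.of ℤ Q p * TT Q = TT Q := by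
  unfold TT
  rw [Finset.mul_sum]
  refine Fintype.sum_equiv (Equiv.mulLeft p) _ _ fun r => ?_
  rw [← map_mul]
  rfl

theorem TT_mul_of (p : Q) : TT Q * MonoidAlgebra.of ℤ Q p = TT Q := by
  rw [mul_comm, of_mul_TT]

theorem mul_TT (f : MonoidAlgebra ℤ Q) : f * TT Q = (aug f) • TT Q := by
  induction f using MonoidAlgebra.induction_on with
  | of p => rw [of_mul_TT, aug_of, one_smul]
  | add a b ha hb => rw [add_mul, ha, hb, map_add, add_smul]
  | smul c a ha => rw [smul_mul_assoc, ha, map_smul, smul_smul, smul_eq_mul]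

end GroupRing

section Main

variable {Q : Type*} [CommGroup Q]
variable {G : Type*} [Group G] {W : Type*} [AddCommGroup W] [Module (MonoidAlgebra ℤ Q) W]
  {q : G →* Q} {d : G → W}

theorem d_one (hd : ∀ a b, d (a * b) = MonoidAlgebra.of ℤ Q (q b) • d a + d b) : d 1 = 0 := by
  have h := hd 1 1
  rw [mul_one, map_one, map_one, one_smul] at h
  exact (left_eq_add.mp h)

theorem d_mul_of_ker (hd : ∀ a b, d (a * b) = MonoidAlgebra.of ℤ Q (q b) • d a + d b) {a b : G}
    (hb : q b = 1) : d (a * b) = d a + d b := by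
  rw [hd, hb, map_one, one_smul]

theorem d_inv_of_ker (hd : ∀ a b, d (a * b) = MonoidAlgebra.of ℤ Q (q b) • d a + d b) {a : G}
    (ha : q a = 1) : d a⁻¹ = - d a := by
  have h := d_mul_of_ker hd (a := a) (b := a⁻¹) (by rw [map_inv, ha, inv_one])
  rw [mul_inv_cancel, d_one hd] at h
  exact eq_neg_of_add_eq_zero_right h.symm

theorem d_conj (hd : ∀ a b, d (a * b) = MonoidAlgebra.of ℤ Q (q b) • d a + d b) (k h : G)
    (hh : q h = 1) : d (k * h * k⁻¹) = MonoidAlgebra.of ℤ Q (q k⁻¹) • d h := by
  rw [hd, d_mul_of_ker hd hh, smul_add, add_right_comm, ← hd, mul_inv_cancel, d_one hd, zero_add]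

theorem d_pow (hd : ∀ a b, d (a * b) = MonoidAlgebra.of ℤ Q (q b) • d a + d b) (g : G) (n : ℕ) :
    d (g ^ n) = (∑ l ∈ Finset.range n, (MonoidAlgebra.of ℤ Q (q g)) ^ l) • d g := by
  induction n with
  | zero => simp [d_one hd]
  | succ n ih =>
    rw [pow_succ, hd, ih, geom_sum_succ, add_smul, smul_smul, one_smul]

theorem d_comm (hd : ∀ a b, d (a * b) = MonoidAlgebra.of ℤ Q (q b) • d a + d b) (a b : G) :
    d (a⁻¹ * b⁻¹ * a * b) = (MonoidAlgebra.of ℤ Q (q b) - 1) • d a -
      (MonoidAlgebra.of ℤ Q (q a) - 1) • d b := by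
  have hc : q (a⁻¹ * b⁻¹ * a * b) = 1 := by
    simp only [map_mul, map_inv]
    rw [mul_comm (q a)⁻¹ (q b)⁻¹, mul_assoc (q b)⁻¹, inv_mul_cancel, mul_one, inv_mul_cancel]
  have e : a * b = (b * a) * (a⁻¹ * b⁻¹ * a * b) := by group
  have h1 := d_mul_of_ker hd (a := b * a) hc
  rw [← e, hd, hd] at h1
  rw [sub_smul, sub_smul, one_smul, one_smul]
  rw [eq_comm] at h1
  have h2 : d (a⁻¹ * b⁻¹ * a * b) = (MonoidAlgebra.of ℤ Q (q b) • d a + d b) -
      (MonoidAlgebra.of ℤ Q (q a) • d b + d a) := eq_sub_of_add_eq' h1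
  rw [h2]
  abel

/-- The group `D`. -/
def dGroup (hd : ∀ a b, d (a * b) = MonoidAlgebra.of ℤ Q (q b) • d a + d b)
    (C : Submodule (MonoidAlgebra ℤ Q) W) : Subgroup G where
  carrier := {h | q h = 1 ∧ d h ∈ C}
  mul_mem' := by
    rintro a b ⟨ha, ha'⟩ ⟨hb, hb'⟩
    refine ⟨by rw [map_mul, ha, hb, one_mul], ?_⟩
    rw [d_mul_of_ker hd hb]
    exact C.add_mem ha' hb'
  one_mem' := ⟨map_one q, by rw [d_one hd]; exact C.zero_mem⟩
  inv_mem' := by
    rintro a ⟨ha, ha'⟩
    refine ⟨by rw [map_inv, ha, inv_one], ?_⟩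
    rw [d_inv_of_ker hd ha]
    exact C.neg_mem ha'

theorem dGroup_normal (hd : ∀ a b, d (a * b) = MonoidAlgebra.of ℤ Q (q b) • d a + d b)
    (C : Submodule (MonoidAlgebra ℤ Q) W) : (dGroup hd C).Normal := by
  constructor
  rintro h ⟨hh, hh'⟩ k
  refine ⟨by rw [map_mul, map_mul, hh, mul_one, map_inv, mul_inv_cancel], ?_⟩
  rw [d_conj hd k h hh]
  exact C.smul_mem _ hh'

/-- If pairwise commutators of generators lie in the normal subgroup `D`, the derived group does. -/
theorem commutator_le_of_gens {J : Type*} (g : J → G) (hgen : Subgroup.closure (Set.range g) = ⊤)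
    (D : Subgroup G) [hD : D.Normal] (hc : ∀ a b : J, (g a)⁻¹ * (g b)⁻¹ * g a * g b ∈ D) :
    commutator G ≤ D := by
  have h1 : ∀ a b : J, ((g b : G) : G ⧸ D) * (g a : G) = (g a : G) * (g b : G) := by
    intro a b
    rw [← QuotientGroup.mk_mul, ← QuotientGroup.mk_mul, QuotientGroup.eq]
    have e : (g b * g a)⁻¹ * (g a * g b) = (g a)⁻¹ * (g b)⁻¹ * g a * g b := by group
    rw [e]; exact hc a b
  have h2 : ∀ x : G, ∀ b : J, ((x : G) : G ⧸ D) * (g b : G) = (g b : G) * (x : G) := by
    intro x
    have hx : x ∈ Subgroup.closure (Set.range g) := by rw [hgen]; trivial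
    refine Subgroup.closure_induction (p := fun x _ => ∀ b : J, ((x : G) : G ⧸ D) * (g b : G) = (g b : G) * (x : G))
      ?_ ?_ ?_ ?_ hx
    · rintro _ ⟨a, rfl⟩ b
      exact h1 b a
    · intro b
      simp
    · intro u v _ _ hu hv b
      rw [QuotientGroup.mk_mul, mul_assoc, hv b, ← mul_assoc, hu b, mul_assoc]
    · intro u _ hu b
      rw [QuotientGroup.mk_inv]
      have h3 := hu b
      exact (Commute.inv_left (show Commute ((u : G) : G ⧸ D) (g b : G) from h3)).eq
  have h3 : ∀ x y : G, ((x : G) : G ⧸ D) * (y : G) = (y : G) * (x : G) := by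
    intro x y
    have hy : y ∈ Subgroup.closure (Set.range g) := by rw [hgen]; trivial
    refine Subgroup.closure_induction (p := fun y _ => ((x : G) : G ⧸ D) * (y : G) = (y : G) * (x : G))
      ?_ ?_ ?_ ?_ hy
    · rintro _ ⟨a, rfl⟩
      exact h2 x a
    · simp
    · intro u v _ _ hu hv
      rw [QuotientGroup.mk_mul, ← mul_assoc, hu, mul_assoc, hv, mul_assoc]
    · intro u _ hu
      rw [QuotientGroup.mk_inv]
      exact (Commute.inv_right (show Commute ((x : G) : G ⧸ D) (u : G) from hu)).eq
  rw [_root_.commutator_def, Subgroup.commutator_le]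
  intro a _ b _
  rw [← QuotientGroup.eq_one_iff, commutatorElement_def]
  simp only [QuotientGroup.mk_mul, QuotientGroup.mk_inv]
  rw [h3 a b]
  group

variable [Fintype Q]

/-- **Witt's identity**: the norm element kills `d` on generators. -/
theorem TT_smul_gen (hd : ∀ a b, d (a * b) = MonoidAlgebra.of ℤ Q (q b) • d a + d b)
    (hsurj : Function.Surjective q) (hker : q.ker ≤ commutator G)
    {J : Type*} [Fintype J] [DecidableEq J] (g : J → G) (m : J → ℕ)
    (hm : ∀ j, q (g j) ^ m j = 1) (hgen : Subgroup.closure (Set.range g) = ⊤)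
    (hcard : ∏ j, m j = Fintype.card Q) (k : J) : TT Q • d (g k) = 0 := by
  classical
  set x : J → MonoidAlgebra ℤ Q := fun j => MonoidAlgebra.of ℤ Q (q (g j)) - 1 with hx
  set N : J → MonoidAlgebra ℤ Q :=
    fun j => ∑ l ∈ Finset.range (m j), (MonoidAlgebra.of ℤ Q (q (g j))) ^ l with hN
  set δ : J → W := fun j => d (g j) with hδ
  set v : J × J → W := fun p => x p.2 • δ p.1 - x p.1 • δ p.2 with hv
  set C : Submodule (MonoidAlgebra ℤ Q) W := Submodule.span _ (Set.range v) with hC
  haveI hDn := dGroup_normal hd C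
  have hcomm := commutator_le_of_gens g hgen (dGroup hd C) (by
    intro a b
    refine ⟨?_, ?_⟩
    · simp only [map_mul, map_inv]
      rw [mul_comm (q (g a))⁻¹ (q (g b))⁻¹, mul_assoc (q (g b))⁻¹, inv_mul_cancel, mul_one,
        inv_mul_cancel]
    · rw [d_comm hd]
      exact Submodule.subset_span ⟨(a, b), rfl⟩)
  have hNδ : ∀ j, N j • δ j ∈ C := by
    intro j
    have h1 : g j ^ m j ∈ commutator G := hker (by rw [MonoidHom.mem_ker, map_pow, hm])
    have h2 := (hcomm h1).2
    rwa [d_pow hd] at h2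
  have hr : ∀ j, ∃ c : J × J → MonoidAlgebra ℤ Q, ∑ p, c p • v p = N j • δ j := fun j =>
    (Submodule.mem_span_range_iff_exists_fun _).mp (hNδ j)
  choose r hr using hr
  have hNx : ∀ j, N j * x j = 0 := by
    intro j
    simp only [hN, hx]
    rw [geom_sum_mul, ← map_pow, hm, map_one, sub_self]
  let B : Matrix J J (MonoidAlgebra ℤ Q) := Matrix.of fun j b =>
    (if j = b then N j else 0) - ∑ a, (r j (b, a) - r j (a, b)) * x a
  have hB1 : ∀ j, ∑ b, B j b • δ b = 0 := by
    intro j
    have h1 : ∀ b, B j b • δ b = (if j = b then N j else 0) • δ b -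
        ∑ a, (r j (b, a) • (x a • δ b) - r j (a, b) • (x a • δ b)) := by
      intro b
      simp only [B, Matrix.of_apply]
      rw [sub_smul, Finset.sum_smul]
      congr 1
      refine Finset.sum_congr rfl fun a _ => ?_
      rw [sub_mul, sub_smul, mul_smul, mul_smul]
    simp_rw [h1]
    rw [Finset.sum_sub_distrib]
    have h2 : ∑ b, (if j = b then N j else 0) • δ b = N j • δ j := by
      rw [Finset.sum_eq_single j]
      · simp
      · intro b _ hb
        simp [Ne.symm hb]
      · simp
    rw [h2, ← hr j, Fintype.sum_prod_type]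
    rw [sub_eq_zero]
    simp_rw [Finset.sum_sub_distrib]
    have h3 : ∑ b, ∑ a, r j (a, b) • (x a • δ b) = ∑ a, ∑ b, r j (a, b) • (x a • δ b) :=
      Finset.sum_comm
    rw [h3, ← Finset.sum_sub_distrib]
    refine Finset.sum_congr rfl fun a _ => ?_
    rw [← Finset.sum_sub_distrib]
    refine Finset.sum_congr rfl fun b _ => ?_
    simp only [hv]
    rw [smul_sub]
  have hB2 : ∀ j, ∑ b, B j b • x b = 0 := by
    intro j
    have h1 : ∀ b, B j b • x b = (if j = b then N j else 0) * x b -
        ∑ a, (r j (b, a) * (x a * x b) - r j (a, b) * (x a * x b)) := by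
      intro b
      simp only [B, Matrix.of_apply, smul_eq_mul]
      rw [sub_mul, Finset.sum_mul]
      congr 1
      refine Finset.sum_congr rfl fun a _ => ?_
      ring
    simp_rw [h1]
    rw [Finset.sum_sub_distrib]
    have h2 : ∑ b, (if j = b then N j else 0) * x b = N j * x j := by
      rw [Finset.sum_eq_single j]
      · simp
      · intro b _ hb
        simp [Ne.symm hb]
      · simp
    rw [h2, hNx, zero_sub, neg_eq_zero]
    simp_rw [Finset.sum_sub_distrib]
    rw [sub_eq_zero]
    rw [Finset.sum_comm]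
    refine Finset.sum_congr rfl fun a _ => Finset.sum_congr rfl fun b _ => ?_
    rw [mul_comm (x a) (x b)]
  have hdetδ : B.det • δ k = 0 := cramer B δ hB1 k
  have hdetx : ∀ i, B.det * x i = 0 := fun i => cramer B x hB2 i
  have hinv : ∀ y : G, B.det * MonoidAlgebra.of ℤ Q (q y) = B.det := by
    intro y
    have hy : y ∈ Subgroup.closure (Set.range g) := by rw [hgen]; trivial
    refine Subgroup.closure_induction (p := fun y _ => B.det * MonoidAlgebra.of ℤ Q (q y) = B.det)
      ?_ ?_ ?_ ?_ hy
    · rintro _ ⟨i, rfl⟩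
      have h1 := hdetx i
      simp only [hx] at h1
      rw [mul_sub, mul_one, sub_eq_zero] at h1
      exact h1
    · rw [map_one, map_one, mul_one]
    · intro u v _ _ hu hv
      rw [map_mul, map_mul, ← mul_assoc, hu, hv]
    · intro u _ hu
      rw [map_inv]
      calc B.det * MonoidAlgebra.of ℤ Q (q u)⁻¹
          = (B.det * MonoidAlgebra.of ℤ Q (q u)) * MonoidAlgebra.of ℤ Q (q u)⁻¹ := by rw [hu]
        _ = B.det := by
          rw [mul_assoc, ← map_mul, mul_inv_cancel, map_one, mul_one]
  have hall : ∀ p : Q, B.det * MonoidAlgebra.of ℤ Q p = B.det := by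
    intro p
    obtain ⟨y, rfl⟩ := hsurj p
    exact hinv y
  have hdetT : B.det * TT Q = (Fintype.card Q : ℤ) • B.det := by
    unfold TT
    rw [Finset.mul_sum]
    simp_rw [hall]
    rw [Finset.sum_const, Finset.card_univ, natCast_zsmul]
  have haugx : ∀ a, aug (x a) = 0 := by
    intro a
    simp only [hx]
    rw [map_sub, aug_of, map_one, sub_self]
  have haugN : ∀ j, aug (N j) = (m j : ℤ) := by
    intro j
    simp only [hN]
    rw [map_sum]
    simp_rw [map_pow, aug_of, one_pow]
    simp
  have hmat : (aug (Q := Q)).toRingHom.mapMatrix B = Matrix.diagonal (fun j => (m j : ℤ)) := by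
    ext j b
    simp only [RingHom.mapMatrix_apply, Matrix.map_apply, B, Matrix.of_apply]
    show aug _ = _
    rw [map_sub, map_sum]
    simp_rw [map_mul, haugx, mul_zero]
    rw [Finset.sum_const_zero, sub_zero]
    by_cases hjb : j = b
    · subst hjb
      simp [haugN]
    · simp [hjb]
  have haug : aug B.det = (∏ j, (m j : ℤ)) := by
    have h1 := RingHom.map_det (aug (Q := Q)).toRingHom B
    rw [hmat, Matrix.det_diagonal] at h1
    exact h1
  have hprod : (∏ j, (m j : ℤ)) = (Fintype.card Q : ℤ) := by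
    rw [← hcard]
    push_cast
    rfl
  have h5 : (Fintype.card Q : ℤ) • B.det = (Fintype.card Q : ℤ) • TT Q := by
    rw [← hdetT, mul_TT, haug, hprod]
  have hpos : (Fintype.card Q : ℤ) ≠ 0 := by
    have : Fintype.card Q ≠ 0 := Fintype.card_ne_zero
    exact_mod_cast this
  have hdetTT : B.det = TT Q := by
    apply MonoidAlgebra.ext
    ext p
    have h6 := congrArg (fun f : MonoidAlgebra ℤ Q => f.coeff p) h5
    simp only [MonoidAlgebra.coeff_smul_apply, smul_eq_mul] at h6
    exact mul_left_cancel₀ hpos h6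
  rw [← hdetTT]
  exact hdetδ

/-- `T • d` vanishes everywhere. -/
theorem TT_smul_eq_zero (hd : ∀ a b, d (a * b) = MonoidAlgebra.of ℤ Q (q b) • d a + d b)
    (hsurj : Function.Surjective q) (hker : q.ker ≤ commutator G)
    {J : Type*} [Fintype J] [DecidableEq J] (g : J → G) (m : J → ℕ)
    (hm : ∀ j, q (g j) ^ m j = 1) (hgen : Subgroup.closure (Set.range g) = ⊤)
    (hcard : ∏ j, m j = Fintype.card Q) (y : G) : TT Q • d y = 0 := by
  have hy : y ∈ Subgroup.closure (Set.range g) := by rw [hgen]; trivial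
  have hmul : ∀ a b, TT Q • d (a * b) = TT Q • d a + TT Q • d b := by
    intro a b
    rw [hd, smul_add, smul_smul, TT_mul_of]
  refine Subgroup.closure_induction (p := fun y _ => TT Q • d y = 0) ?_ ?_ ?_ ?_ hy
  · rintro _ ⟨i, rfl⟩
    exact TT_smul_gen hd hsurj hker g m hm hgen hcard i
  · rw [d_one hd, smul_zero]
  · intro u v _ _ hu hv
    rw [hmul, hu, hv, add_zero]
  · intro u _ hu
    have h1 := hmul u⁻¹ u
    rw [inv_mul_cancel, d_one hd, smul_zero, hu, add_zero] at h1
    exact h1.symm

end Main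

section Concrete

variable {Q : Type*} [CommGroup Q] {A : Type*} [AddCommGroup A]

/-- Translation action on functions. -/
def actHom : Q →* Module.End ℤ (Q → A) where
  toFun p :=
    { toFun := fun f r => f (p * r)
      map_add' := fun _ _ => rfl
      map_smul' := fun _ _ => rfl }
  map_one' := by
    ext f r
    simp
  map_mul' a b := by
    ext f r
    show f (a * b * r) = f (b * (a * r))
    rw [mul_left_comm, mul_assoc]

/-- The action of the group ring. -/
noncomputable def actRing : MonoidAlgebra ℤ Q →ₐ[ℤ] Module.End ℤ (Q → A) :=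
  MonoidAlgebra.lift ℤ (Module.End ℤ (Q → A)) Q actHom

theorem actRing_of (p : Q) (f : Q → A) (r : Q) :
    actRing (A := A) (MonoidAlgebra.of ℤ Q p) f r = f (p * r) := by
  unfold actRing
  rw [MonoidAlgebra.lift_of]
  rfl

theorem actRing_TT [Fintype Q] (f : Q → A) (r : Q) :
    actRing (A := A) (TT Q) f r = ∑ p, f (p * r) := by
  unfold TT
  rw [map_sum, LinearMap.sum_apply, Finset.sum_apply]
  refine Finset.sum_congr rfl fun p _ => ?_
  rw [actRing_of]

/-- Functions, as a module over the group ring (a synonym, to avoid the pointwise action). -/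
def Fn (Q A : Type*) : Type _ := Q → A

instance : AddCommGroup (Fn Q A) := inferInstanceAs (AddCommGroup (Q → A))

/-- The module structure on functions. -/
noncomputable instance moduleFn : Module (MonoidAlgebra ℤ Q) (Fn Q A) where
  smul u f := actRing (A := A) u f
  one_smul f := by
    show actRing (A := A) 1 f = f
    rw [map_one]; rfl
  mul_smul a b f := by
    show actRing (A := A) (a * b) f = actRing (A := A) a (actRing (A := A) b f)
    rw [map_mul]; rfl
  smul_zero a := map_zero (actRing (A := A) a)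
  smul_add a f g := map_add (actRing (A := A) a) f g
  add_smul a b f := by
    show actRing (A := A) (a + b) f = actRing (A := A) a f + actRing (A := A) b f
    rw [map_add]; rfl
  zero_smul f := by
    show actRing (A := A) 0 f = 0
    rw [map_zero]; rfl

end Concrete

section Final

variable {G : Type*} [Group G] [Finite G]

theorem smul_eq_mul_mk (x : G) (r : G ⧸ commutator G) :
    x • r = (show G ⧸ commutator G from (Abelianization.of x * (show Abelianization G from r) : Abelianization G)) := by
  induction r using QuotientGroup.induction_on with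
  | H g => rfl

theorem trEl_mul {U : Type*} [Group U] {H : Subgroup U} (R : U ⧸ H → U)
    (hR : ∀ q, ((R q : U) : U ⧸ H) = q) (a b : U) (r : U ⧸ H) :
    (Cfsg.Agent.Lib.Fusion.CharTransfer.trEl R hR (a * b) r : U) =
      (Cfsg.Agent.Lib.Fusion.CharTransfer.trEl R hR a (b • r) : U) *
        (Cfsg.Agent.Lib.Fusion.CharTransfer.trEl R hR b r : U) := by
  rw [Cfsg.Agent.Lib.Fusion.CharTransfer.trEl_coe, Cfsg.Agent.Lib.Fusion.CharTransfer.trEl_coe,
    Cfsg.Agent.Lib.Fusion.CharTransfer.trEl_coe, mul_smul]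
  group

/-- **The principal ideal theorem**. -/
theorem transfer_trivial :
    MonoidHom.transfer (Abelianization.of : ↥(commutator G) →* Abelianization ↥(commutator G)) =
      (1 : G →* Abelianization ↥(commutator G)) := by
  classical
  let H : Subgroup G := commutator G
  let Q := Abelianization G
  haveI hfin : Finite Q := Nat.finite_of_card_ne_zero (by
    show Nat.card (G ⧸ commutator G) ≠ 0
    exact Nat.card_pos.ne')
  haveI hFQ : Fintype Q := Fintype.ofFinite _
  letI hFH : Fintype (G ⧸ H) := hFQ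
  let A := Additive (Abelianization H)
  have hsmul : ∀ (u : MonoidAlgebra ℤ Q) (f : Fn Q A), u • f = actRing (A := A) u f := fun _ _ => rfl
  let σ : G ⧸ H → G := fun r => Quotient.out r
  have hσ : ∀ r, ((σ r : G) : G ⧸ H) = r := fun r => QuotientGroup.out_eq' r
  let d : G → Fn Q A := fun x r => Additive.ofMul (Abelianization.of
    (Cfsg.Agent.Lib.Fusion.CharTransfer.trEl σ hσ x r))
  let q : G →* Q := Abelianization.of
  have hd : ∀ a b, d (a * b) = MonoidAlgebra.of ℤ Q (q b) • d a + d b := by
    intro a b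
    funext r
    have e0 : (MonoidAlgebra.of ℤ Q (q b) • d a + d b) r = actRing (A := A) (MonoidAlgebra.of ℤ Q (q b)) (d a) r + d b r := rfl
    rw [e0, actRing_of]
    show Additive.ofMul _ = Additive.ofMul _ + Additive.ofMul _
    rw [← ofMul_mul, ← map_mul]
    congr 2
    apply Subtype.ext
    simp only [Subgroup.coe_mul]
    have e1 : b • (show G ⧸ H from r) = (q b * r : Q) := smul_eq_mul_mk b r
    have h2 := trEl_mul σ hσ a b (show G ⧸ H from r)
    rw [e1] at h2
    exact h2
  have hsurj : Function.Surjective q := QuotientGroup.mk'_surjective _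
  have hker : q.ker ≤ commutator G := by
    show (Abelianization.of : G →* Abelianization G).ker ≤ commutator G
    rw [Abelianization.ker_of]
  obtain ⟨ι, hι, n, hn, ⟨e⟩⟩ := CommGroup.equiv_prod_multiplicative_zmod_of_finite Q
  let b : ι → Q := fun i => e.symm (Pi.mulSingle i (Multiplicative.ofAdd 1))
  let g₀ : ι → G := fun i => Classical.choose (hsurj (b i))
  have hg₀ : ∀ i, q (g₀ i) = b i := fun i => Classical.choose_spec (hsurj (b i))
  haveI hFHH : Fintype H := Fintype.ofFinite _
  let g : ι ⊕ H → G := Sum.elim g₀ (fun h => (h : G))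
  let m : ι ⊕ H → ℕ := Sum.elim n (fun _ => 1)
  have hm : ∀ j, q (g j) ^ m j = 1 := by
    rintro (i | h)
    · show q (g₀ i) ^ n i = 1
      rw [hg₀]
      show (e.symm (Pi.mulSingle i (Multiplicative.ofAdd 1))) ^ n i = 1
      rw [← map_pow, ← Pi.mulSingle_pow, ← ofAdd_nsmul]
      have : n i • (1 : ZMod (n i)) = 0 := by
        rw [nsmul_eq_mul, mul_one, ZMod.natCast_self]
      rw [this, ofAdd_zero, Pi.mulSingle_one, map_one]
    · show q (h : G) ^ 1 = 1
      rw [pow_one]
      have : (h : G) ∈ q.ker := by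
        show (h : G) ∈ (Abelianization.of : G →* Abelianization G).ker
        rw [Abelianization.ker_of]
        exact h.2
      exact this
  have hgen : Subgroup.closure (Set.range g) = ⊤ := by
    set L : Subgroup G := Subgroup.closure (Set.range g) with hL
    have hHL : H ≤ L := fun h hh => Subgroup.subset_closure ⟨Sum.inr ⟨h, hh⟩, rfl⟩
    have hbL : ∀ i, b i ∈ L.map q := by
      intro i
      exact ⟨g₀ i, Subgroup.subset_closure ⟨Sum.inl i, rfl⟩, hg₀ i⟩
    have hmap : L.map q = ⊤ := by
      rw [eq_top_iff]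
      intro y _
      have h1 : y = e.symm (∏ i, Pi.mulSingle i (e y i)) := by
        rw [Finset.univ_prod_mulSingle, MulEquiv.symm_apply_apply]
      rw [h1, map_prod]
      refine Subgroup.prod_mem _ fun i _ => ?_
      have h2 : Pi.mulSingle i (e y i) =
          (Pi.mulSingle i (Multiplicative.ofAdd 1) : (i : ι) → Multiplicative (ZMod (n i))) ^ (Multiplicative.toAdd (e y i)).val := by
        rw [← Pi.mulSingle_pow, ← ofAdd_nsmul]
        congr 1
        haveI : NeZero (n i) := ⟨by have := hn i; omega⟩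
        rw [nsmul_eq_mul, mul_one, ZMod.natCast_zmod_val]
        rfl
      rw [h2, map_pow]
      exact Subgroup.pow_mem _ (hbL i) _
    rw [eq_top_iff]
    intro x _
    have h1 : q x ∈ L.map q := by rw [hmap]; trivial
    obtain ⟨l, hl, hlx⟩ := h1
    have h2 : x⁻¹ * l ∈ q.ker := by
      rw [MonoidHom.mem_ker, map_mul, map_inv, hlx, inv_mul_cancel]
    have h3 : x⁻¹ * l ∈ H := hker h2
    have h4 : x = l * (x⁻¹ * l)⁻¹ := by group
    rw [h4]
    exact L.mul_mem hl (L.inv_mem (hHL h3))
  have hcard : ∏ j, m j = Fintype.card Q := by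
    rw [Fintype.prod_sum_type]
    simp only [m, Sum.elim_inl, Sum.elim_inr, Finset.prod_const_one, mul_one]
    rw [← Nat.card_eq_fintype_card, Nat.card_congr e.toEquiv, Nat.card_pi]
    refine Finset.prod_congr rfl fun i _ => ?_
    rw [Nat.card_congr Multiplicative.toAdd, Nat.card_zmod]
  ext x
  show MonoidHom.transfer _ x = 1
  rw [Cfsg.Agent.Lib.Fusion.CharTransfer.transfer_eq_prod_trEl _ σ hσ x]
  have h0 := TT_smul_eq_zero hd hsurj hker g m hm hgen hcard x
  have h1 := congrFun h0 1
  have h2 : (TT Q • d x) 1 = ∑ p : Q, d x p := by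
    have e0 : (TT Q • d x) 1 = actRing (A := A) (TT Q) (d x) 1 := rfl
    rw [e0, actRing_TT]
    simp only [mul_one]
    rfl
  rw [h2] at h1
  have h3 : ∏ p : G ⧸ H, (Abelianization.of (Cfsg.Agent.Lib.Fusion.CharTransfer.trEl σ hσ x p) : Abelianization H)
      = Additive.toMul (∑ p : Q, d x p) := by
    rw [toMul_sum]
    rfl
  rw [h3, h1]
  rfl

end Final

end Cfsg.Agent.Lib.Transfer.PrincipalIdeal
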